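import Mathlib
import Cfsg.Agent.Lib.Helper55.OOG.Defs

/-!
# Project OOG (S2413), package [EPERP]: all `ρ_{e_i, w}`, `w ⊥ e_i`, lie in `K`.
-/

set_option autoImplicit false
open scoped Matrix

namespace Cfsg.Agent.Lib.Helper37.OOG

universe u

open Cfsg.Agent.Lib.Helper55.OOG

theorem pkgEPerp_of (hExist : PkgExist.{u}) (hAlg : PkgAlg.{u}) : PkgEPerp.{u} := by
  intro m F _ K hS hL i₀ w σ hw hσ
  classical
  have hQ : QF m F (E i₀) = 0 := Q_E i₀
  obtain ⟨ha, hb, -, -, he, -⟩ := hAlg m F (E i₀) hQ
  -- one-coordinate elements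
  have hone : ∀ (k : Unit ⊕ (Fin m ⊕ Fin m)) (c : F) (τ : ↥(Iso m F)),
      B (E i₀ : Vec m F) (c • (Pi.single k 1 : Vec m F)) = 0 →
      IsSieg (E i₀) (c • (Pi.single k 1 : Vec m F)) τ → τ ∈ K := by
    intro k c τ hk hτ
    rcases k with ⟨⟩ | i | i
    · exact (hS i₀ c τ).1 hτ
    · by_cases hi : i = i₀
      · subst hi
        have h1 : IsSieg (E i) (0 : Vec m F) τ :=
          (he c 0 τ (B_zero_right _)).mp (by rw [zero_add]; exact hτ)
        rw [isSieg_ext h1 ha]
        exact K.one_mem
      · exact (hL i i₀ hi c τ).1 hτ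
    · by_cases hi : i = i₀
      · subst hi
        have hc : c = 0 := by
          rw [B_smul_right, B_E_Fv, if_pos rfl, mul_one] at hk
          exact hk
        subst hc
        rw [zero_smul] at hτ
        rw [isSieg_ext hτ ha]
        exact K.one_mem
      · exact (hL i i₀ hi c τ).2.1 hτ
  -- induction on the support
  have key : ∀ s : Finset (Unit ⊕ (Fin m ⊕ Fin m)), ∀ w : Vec m F, (∀ k, k ∉ s → w k = 0) →
      B (E i₀ : Vec m F) w = 0 → ∀ σ : ↥(Iso m F), IsSieg (E i₀) w σ → σ ∈ K := by
    intro s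
    induction s using Finset.induction_on with
    | empty =>
      intro w hsupp hw σ hσ
      have hw0 : w = 0 := funext fun k => hsupp k (Finset.notMem_empty k)
      subst hw0
      rw [isSieg_ext hσ ha]
      exact K.one_mem
    | insert k s hk ih =>
      intro w hsupp hw σ hσ
      have hsplit : w = Function.update w k 0 + (w k) • (Pi.single k 1 : Vec m F) := by
        funext j
        by_cases hj : j = k
        · subst hj; simp
        · simp [Function.update_of_ne hj, Pi.single_eq_of_ne hj]
      have h2 : B (E i₀ : Vec m F) ((w k) • (Pi.single k 1 : Vec m F)) = 0 := by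
        rw [B_smul_right, B_comm, B_E]
        by_cases hk2 : k = Sum.inr (Sum.inr i₀)
        · have h0 : w k = 0 := by
            rw [B_comm, B_E] at hw
            rw [hk2]; exact hw
          rw [h0, zero_mul]
        · rw [Pi.single_eq_of_ne (Ne.symm hk2), mul_zero]
      have h1 : B (E i₀ : Vec m F) (Function.update w k 0) = 0 := by
        have h3 := hw
        rw [hsplit, B_add_right, h2, add_zero] at h3
        exact h3
      obtain ⟨σ1, hσ1⟩ := hExist m F (E i₀) (Function.update w k 0) hQ h1
      obtain ⟨σ2, hσ2⟩ := hExist m F (E i₀) ((w k) • (Pi.single k 1 : Vec m F)) hQ h2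
      have h12 := hb _ _ σ1 σ2 h1 h2 hσ1 hσ2
      rw [← hsplit] at h12
      rw [isSieg_ext hσ h12]
      refine K.mul_mem (ih _ ?_ h1 σ1 hσ1) (hone k (w k) σ2 h2 hσ2)
      intro j hj
      by_cases hjk : j = k
      · subst hjk; simp
      · rw [Function.update_of_ne hjk]
        exact hsupp j (by simp [hjk, hj])
  exact key Finset.univ w (fun k hk => absurd (Finset.mem_univ k) hk) hw σ hσ

end Cfsg.Agent.Lib.Helper37.OOG
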